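import Cfsg.Agent.PCore.Basic
import Cfsg.Agent.PCore.PSolvable
import Cfsg.Agent.PCore.PConstrained
import Cfsg.Agent.PCore.OmegaFix
import Cfsg.Agent.CoprimeAction.Conjugacy
import Cfsg.Agent.PLocalBasics.PLength
set_option autoImplicit false

/-!
`p`-solvable groups in which the elements of order `p` cannot be separated by characteristic subgroups have
`p`-length at most one (`p` odd).
-/

namespace CfsgLib.GaschutzYen

open Pointwise

universe u

variable {G : Type u} [Group G] {p : ℕ}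

/-- No characteristic subgroup separates the elements of order `p`. -/
def Uniform (p : ℕ) (G : Type u) [Group G] : Prop :=
  ∀ C : Subgroup G, C.Characteristic → ∀ x ∈ C, orderOf x = p → ∀ y : G, orderOf y = p → y ∈ C

theorem uniform_quotient [hp : Fact p.Prime] [Finite G] (h : Uniform p G) :
    Uniform p (G ⧸ Cfsg.pPrimeCore p G) := by
  set N := Cfsg.pPrimeCore p G
  have hlift : ∀ y : G ⧸ N, orderOf y = p → ∃ z : G, QuotientGroup.mk z = y ∧ orderOf z = p := by
    intro y hy
    obtain ⟨g, rfl⟩ := QuotientGroup.mk_surjective y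
    have hmem : g ^ p ∈ N := by
      have h1 := pow_orderOf_eq_one (QuotientGroup.mk g : G ⧸ N)
      rw [hy, ← QuotientGroup.mk_pow, QuotientGroup.eq_one_iff] at h1
      exact h1
    set c := Nat.card N
    have hc : c.Coprime p := CfsgLib.PCore.pPrimeCore_coprime p G
    have hgc : g ^ (p * c) = 1 := by
      rw [pow_mul]
      exact congrArg Subtype.val (pow_card_eq_one' (x := (⟨g ^ p, hmem⟩ : N)))
    obtain ⟨a, ha, ha'⟩ := Nat.chineseRemainder hc 0 1
    refine ⟨g ^ a, ?_, ?_⟩
    · rw [QuotientGroup.mk_pow, ← pow_mod_orderOf, hy, show a % p = 1 % p from ha', Nat.mod_eq_of_lt hp.out.one_lt,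
        pow_one]
    · refine orderOf_eq_prime ?_ fun h1 => ?_
      · obtain ⟨b, hb⟩ : c ∣ a := Nat.modEq_zero_iff_dvd.mp ha
        rw [← pow_mul, hb, show c * b * p = p * c * b by ring, pow_mul, hgc, one_pow]
      · have h2 : (QuotientGroup.mk g : G ⧸ N) ^ a = 1 := by rw [← QuotientGroup.mk_pow, h1, QuotientGroup.mk_one]
        rw [← pow_mod_orderOf, hy, show a % p = 1 % p from ha', Nat.mod_eq_of_lt hp.out.one_lt, pow_one] at h2
        rw [h2, orderOf_one] at hy
        exact hp.out.one_lt.ne hy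
  intro C hC x hx hxp y hyp
  obtain ⟨x', rfl, hx'⟩ := hlift x hxp
  obtain ⟨y', rfl, hy'⟩ := hlift y hyp
  have hchar : (C.comap (QuotientGroup.mk' N)).Characteristic := by
    rw [Subgroup.characteristic_iff_comap_le]
    intro φ z hz
    have hN : N.map φ.toMonoidHom = N :=
      Subgroup.characteristic_iff_map_eq.mp (CfsgLib.PCore.pPrimeCore_characteristic p G) φ
    let ψ : MulAut (G ⧸ N) := QuotientGroup.congr N N φ hN
    exact (Subgroup.characteristic_iff_comap_le.mp hC ψ) (show ψ (QuotientGroup.mk z) ∈ C from hz)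
  exact h _ hchar x' hx hx' y' hy'

theorem not_dvd_index_pCore [hp : Fact p.Prime] [Finite G] (hodd : p ≠ 2) (hs : Cfsg.IsPSolvable p G)
    (hcore : Cfsg.pPrimeCore p G = ⊥) (h : Uniform p G) : ¬ p ∣ (Cfsg.pCore p G).index := by
  intro hdvd
  set Q := Cfsg.pCore p G
  have hQp : IsPGroup p Q := CfsgLib.PCore.isPGroup_pCore p G
  haveI hQc : Q.Characteristic := CfsgLib.PCore.pCore_characteristic p G
  have hhh : Subgroup.centralizer (Q : Set G) ≤ Q := CfsgLib.PCore.hall_higman hs hcore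
  haveI : Nontrivial G := by
    by_contra hnt
    rw [not_nontrivial_iff_subsingleton] at hnt
    have h1 := Subgroup.index_eq_one.mpr (Subsingleton.elim Q ⊤)
    rw [h1] at hdvd
    exact hp.out.one_lt.ne' (Nat.dvd_one.mp hdvd)
  have hQ0 : Q ≠ ⊥ := (CfsgLib.PCore.cores_ne_bot hs).resolve_right (not_not.mpr hcore)
  -- every element of order `p` is central in `Q`
  have hZ : ∀ y : G, orderOf y = p → y ∈ Q ∧ y ∈ Subgroup.centralizer (Q : Set G) := by
    haveI : Nontrivial Q := (Subgroup.nontrivial_iff_ne_bot Q).mpr hQ0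
    haveI := hQp.center_nontrivial
    obtain ⟨n, hn⟩ := IsPGroup.iff_card.mp (hQp.to_subgroup (Subgroup.center Q))
    have hn0 : n ≠ 0 := fun h0 => by
      rw [h0, pow_zero] at hn
      exact (Finite.one_lt_card (α := Subgroup.center Q)).ne' hn
    obtain ⟨z, hz⟩ := exists_prime_orderOf_dvd_card' (G := Subgroup.center Q) p (hn ▸ dvd_pow_self p hn0)
    intro y hy
    refine h (Q ⊓ Subgroup.centralizer (Q : Set G)) ?_ ((z : Q) : G) ⟨(z : Q).2, ?_⟩ ?_ y hy
    · haveI : (Subgroup.centralizer (Q : Set G)).Characteristic := inferInstance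
      infer_instance
    · intro q hq
      exact congrArg Subtype.val (Subgroup.mem_center_iff.mp z.2 ⟨q, hq⟩)
    · rw [Subgroup.orderOf_coe, Subgroup.orderOf_coe, hz]
  -- the next core
  set Mb := Cfsg.pPrimeCore p (G ⧸ Q)
  set M := Mb.comap (QuotientGroup.mk' Q) with hM
  have hQM : Q ≤ M := fun x hx => by
    rw [hM, Subgroup.mem_comap, QuotientGroup.mk'_apply, (QuotientGroup.eq_one_iff x).mpr hx]
    exact one_mem _
  haveI hMc : M.Characteristic := by
    rw [Subgroup.characteristic_iff_comap_le]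
    intro φ z hz
    have hN : Q.map φ.toMonoidHom = Q := Subgroup.characteristic_iff_map_eq.mp hQc φ
    let ψ : MulAut (G ⧸ Q) := QuotientGroup.congr Q Q φ hN
    exact (Subgroup.characteristic_iff_comap_le.mp (CfsgLib.PCore.pPrimeCore_characteristic p (G ⧸ Q)) ψ)
      (show ψ (QuotientGroup.mk z) ∈ Mb from hz)
  have hidx : (Q.subgroupOf M).index = Nat.card Mb := by
    have h1 := CfsgLib.PCore.card_comap_mk' Q Mb
    rw [← hM, ← Subgroup.card_mul_index (Q.subgroupOf M),
      Nat.card_congr (Subgroup.subgroupOfEquivOfLe hQM).toEquiv] at h1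
    exact Nat.eq_of_mul_eq_mul_left Nat.card_pos h1
  have hcop : (Nat.card (Q.subgroupOf M)).Coprime (Q.subgroupOf M).index := by
    obtain ⟨n, hn⟩ := IsPGroup.iff_card.mp hQp
    rw [Nat.card_congr (Subgroup.subgroupOfEquivOfLe hQM).toEquiv, hn, hidx]
    exact ((CfsgLib.PCore.pPrimeCore_coprime p (G ⧸ Q)).symm).pow_left _
  haveI : (Q.subgroupOf M).Normal := Subgroup.Normal.subgroupOf inferInstance M
  obtain ⟨K₀, hK₀⟩ := Subgroup.exists_right_complement'_of_coprime hcop
  set K := K₀.map M.subtype with hKdef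
  have hKM : K ≤ M := Subgroup.map_subtype_le _
  have hcardK : Nat.card K = Nat.card K₀ := Subgroup.card_map_of_injective M.subtype_injective
  have hKcop : (Nat.card K).Coprime p := by
    rw [hcardK, ← hK₀.symm.index_eq_card, hidx]
    exact CfsgLib.PCore.pPrimeCore_coprime p (G ⧸ Q)
  have hQK : ∀ m ∈ M, ∃ q ∈ Q, ∃ k ∈ K, m = q * k := fun m hm => by
    obtain ⟨q, hq, k, hk, e⟩ : (⟨m, hm⟩ : M) ∈ ((Q.subgroupOf M : Set M) * (K₀ : Set M)) := by
      rw [hK₀.mul_eq]; trivial
    exact ⟨q, hq, k, ⟨k, hk, rfl⟩, (congrArg Subtype.val e).symm⟩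
  have hKQ : K ⊓ Q = ⊥ := by
    rw [eq_bot_iff]
    rintro x ⟨hxK, hxQ⟩
    obtain ⟨k, hk, rfl⟩ := hxK
    have : k ∈ Q.subgroupOf M ⊓ K₀ := ⟨hxQ, hk⟩
    rw [hK₀.disjoint.eq_bot, Subgroup.mem_bot] at this
    simp [this]
  have hK0 : K ≠ ⊥ := by
    intro hK
    have hMb : Mb = ⊥ := Subgroup.card_eq_one.mp (by
      rw [← hidx, hK₀.symm.index_eq_card, ← hcardK, hK, Subgroup.card_bot])
    haveI : Nontrivial (G ⧸ Q) := Finite.one_lt_card_iff_nontrivial.mp (by
      rw [← Subgroup.index_eq_card]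
      exact lt_of_lt_of_le hp.out.one_lt (Nat.le_of_dvd (Nat.pos_of_ne_zero Subgroup.index_ne_zero_of_finite) hdvd))
    rcases CfsgLib.PCore.cores_ne_bot (CfsgLib.PCore.isPSolvable_quotient hs Q) with e | e
    · exact e CfsgLib.PCore.pCore_quotient
    · exact e hMb
  -- `K` fixes no element of order `p`
  have hfix : ∀ x : G, orderOf x = p → x ∉ Subgroup.centralizer (K : Set G) := by
    intro x hx hxK
    have hxM : x ∈ Q ⊓ Subgroup.centralizer (M : Set G) := by
      refine ⟨(hZ x hx).1, fun m hm => ?_⟩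
      obtain ⟨q, hq, k, hk, rfl⟩ := hQK m hm
      rw [mul_assoc, hxK k hk, ← mul_assoc, (hZ x hx).2 q hq, mul_assoc]
    haveI : (Subgroup.centralizer (M : Set G)).Characteristic := inferInstance
    have hall : ∀ y : G, orderOf y = p → y ∈ Subgroup.centralizer (K : Set G) := fun y hy k hk =>
      (h (Q ⊓ Subgroup.centralizer (M : Set G)) inferInstance x hxM hx y hy).2 k (hKM hk)
    have hKc : K ≤ Subgroup.centralizer (Q : Set G) :=
      CfsgLib.PCore.le_centralizer_of_fixed_omega hodd hQp (IsPGroup.of_bot (p := p)) hKcop bot_le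
        (fun k _ => Subgroup.normalizer_eq_top (H := Q) ▸ Subgroup.mem_top k) bot_le
        (fun y _ hy1 _ => by
          rcases eq_or_ne y 1 with rfl | hy
          · exact one_mem _
          · exact hall y (orderOf_eq_prime hy1 hy))
    exact hK0 (eq_bot_iff.mpr fun k hk => by
      rw [← hKQ]
      exact ⟨hk, hhh (hKc hk)⟩)
  -- Frattini argument
  set N := Subgroup.normalizer (K : Set G)
  have hQN : Q ⊓ N = ⊥ := by
    rw [eq_bot_iff]
    rintro x ⟨hxQ, hxN⟩
    have hxK : x ∈ Subgroup.centralizer (K : Set G) := fun k hk => by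
      have h1 : x * k * x⁻¹ * k⁻¹ ∈ K ⊓ Q := by
        refine ⟨K.mul_mem ((Subgroup.mem_normalizer_iff.mp hxN k).mp hk) (K.inv_mem hk), ?_⟩
        rw [mul_assoc, mul_assoc, ← mul_assoc k]
        exact mul_mem hxQ (Subgroup.Normal.conj_mem inferInstance _ (inv_mem hxQ) k)
      rw [hKQ, Subgroup.mem_bot, mul_inv_eq_one, mul_inv_eq_iff_eq_mul] at h1
      exact h1.symm
    by_contra hx1
    rw [Subgroup.mem_bot] at hx1
    have hone : orderOf x ≠ 1 := orderOf_eq_one_iff.not.mpr hx1
    obtain ⟨k, hk⟩ := (hQp ⟨x, hxQ⟩)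
    have hpd : p ∣ orderOf x := by
      have h1 : orderOf x ∣ p ^ k := orderOf_dvd_of_pow_eq_one (congrArg Subtype.val hk)
      obtain ⟨j, -, hj⟩ := (Nat.dvd_prime_pow hp.out).mp h1
      rw [hj] at hone ⊢
      exact dvd_pow_self p (fun hj0 => hone (by rw [hj0, pow_zero]))
    exact hfix (x ^ (orderOf x / p)) (orderOf_pow_orderOf_div (orderOf_pos x).ne' hpd) (pow_mem hxK _)
  have hfrat : ∀ g : G, ∃ q ∈ Q, ∃ n ∈ N, g = q * n := by
    intro g
    haveI : M.Normal := inferInstance
    have hsolv : Group.IsSolvable (Q.subgroupOf M) := by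
      haveI : Group.IsNilpotent (Q.subgroupOf M) := (hQp.comap_subtype (K := M)).isNilpotent
      infer_instance
    let φ : M ≃* M := MulAut.conjNormal g
    have hK₁ : Subgroup.IsComplement' (Q.subgroupOf M) (K₀.map φ.toMonoidHom) := by
      refine Subgroup.isComplement'_of_coprime ?_ ?_
      · rw [Subgroup.card_map_of_injective (f := φ.toMonoidHom) φ.injective, ← hK₀.symm.index_eq_card, Subgroup.card_mul_index]
      · rw [Subgroup.card_map_of_injective (f := φ.toMonoidHom) φ.injective, ← hK₀.symm.index_eq_card]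
        exact hcop
    obtain ⟨a, ha, hconj⟩ := CfsgLib.CoprimeAction.complement_conj' (Q.subgroupOf M) hcop (Or.inl hsolv) hK₁ hK₀
    have hmem : ∀ k ∈ K, (a : G) * g * k * ((a : G) * g)⁻¹ ∈ K := by
      rintro _ ⟨k, hk, rfl⟩
      have h1 : a * φ k * a⁻¹ ∈ K₀ := hconj ▸ CfsgLib.CoprimeAction.conj_mem_conj_smul ⟨k, hk, rfl⟩
      refine ⟨a * φ k * a⁻¹, h1, ?_⟩
      simp [φ, mul_assoc]
    refine ⟨(a : G)⁻¹, inv_mem ha, (a : G) * g, ?_, by group⟩
    exact Subgroup.mem_normalizer_iff_map_conj_eq.mpr (Subgroup.eq_of_le_of_card_ge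
      (by rintro _ ⟨k, hk, rfl⟩; exact hmem k hk)
      (le_of_eq (Subgroup.card_map_of_injective (MulEquiv.injective (MulAut.conj ((a : G) * g)))).symm))
  have hcardN : Q.index = Nat.card N := by
    have hcompl : Subgroup.IsComplement' Q N := Subgroup.isComplement'_of_disjoint_and_mul_eq_univ
      (disjoint_iff.mpr hQN) (Set.eq_univ_of_forall fun g => by
        obtain ⟨q, hq, n, hn, rfl⟩ := hfrat g
        exact ⟨q, hq, n, hn, rfl⟩)
    exact hcompl.symm.index_eq_card
  obtain ⟨x, hx⟩ := exists_prime_orderOf_dvd_card' (G := N) p (hcardN ▸ hdvd)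
  have hxQ : (x : G) ∈ Q ⊓ N := ⟨(hZ _ (by rw [Subgroup.orderOf_coe, hx])).1, x.2⟩
  rw [hQN, Subgroup.mem_bot] at hxQ
  rw [show x = 1 from Subtype.ext hxQ, orderOf_one] at hx
  exact hp.out.one_lt.ne hx

theorem pLengthLE_one [hp : Fact p.Prime] [Finite G] (hodd : p ≠ 2) (hs : Cfsg.IsPSolvable p G)
    (h : Uniform p G) : Cfsg.PLengthLE p 1 G := by
  haveI := (Cfsg.upperPSeries p G 1).2
  have e1 := CfsgLib.PLocalBasics.upperPSeries_one (p := p) (G := G)
  have hmain : ∀ N : Subgroup G, ∀ _ : N.Normal, N = Cfsg.pPrimeCore p G →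
      ¬ p ∣ (Cfsg.pCore p (G ⧸ N)).index := by
    intro N _ hN
    subst hN
    exact not_dvd_index_pCore hodd (CfsgLib.PCore.isPSolvable_quotient hs _) CfsgLib.PCore.pPrimeCore_quotient
      (uniform_quotient h)
  have h2 : ¬ p ∣ (Cfsg.upperPSeries p G 2).1.index := by
    rw [CfsgLib.PLocalBasics.upperPSeries_succ_odd (n := 1) (by decide),
      Subgroup.index_comap_of_surjective _ (QuotientGroup.mk'_surjective _)]
    exact hmain _ inferInstance e1
  haveI := (Cfsg.upperPSeries p G 2).2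
  show (Cfsg.upperPSeries p G (2 + 1)).1 = ⊤
  rw [CfsgLib.PLocalBasics.upperPSeries_succ_even (n := 2) (by decide), eq_top_iff]
  have htop : Cfsg.pPrimeCore p (G ⧸ (Cfsg.upperPSeries p G 2).1) = ⊤ := top_le_iff.mp
    (CfsgLib.PCore.le_pPrimeCore_of_not_dvd inferInstance (by
      rw [Subgroup.card_top, ← Subgroup.index_eq_card]; exact h2))
  rw [htop, Subgroup.comap_top]

end CfsgLib.GaschutzYen
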